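import Cfsg.Agent.Lib.KnownSimple.TrialityTorus
import Cfsg.Agent.Lib.TwistedOrder.Instances
import Cfsg.Agent.Lib.Chevalley.G2SplitTori

/-!
In ³D₄(q), characteristic different from five, no element of order five is conjugate to its square: after passing
to ³D₄(q⁴) such an element lies in the diagonal subgroup, where no element of order five has the same multiset of
root values as its square.
-/

set_option autoImplicit false
set_option linter.unusedSectionVars false
set_option maxRecDepth 100000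

open Matrix Cfsg.Lie

namespace CfsgLib.AltSectD4

open CfsgLib.Chevalley (cert_D4 auxD4 xG chi torusHom crd coe_torusHom)
open CfsgLib.Twisted (fullD4)
open CfsgLib.KnownSimple.TrialityTorus (map_xG gl_map_injective d4Torus_data)

/-- Values modulo five at the roots. -/
noncomputable def expo (a b : ZMod 5) (s : Fin chevD4.nroots) : ZMod 5 :=
  ((crd auxD4 0 s + crd auxD4 2 s + crd auxD4 3 s : ℤ) : ZMod 5) * a + (crd auxD4 1 s : ZMod 5) * b

theorem expo_unbalanced : ∀ a b : ZMod 5, (a ≠ 0 ∨ b ≠ 0) →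
    ¬ ((Finset.univ.filter fun s => expo a b s = 1).card = (Finset.univ.filter fun s => expo a b s = 3).card ∧
      (Finset.univ.filter fun s => expo a b s = 2).card = (Finset.univ.filter fun s => expo a b s = 1).card) := by
  decide +kernel

theorem cast_small : (((1 : ℤ) : ZMod 5) ≠ 0 ∧ ((2 : ℤ) : ZMod 5) ≠ 0) ∧
    ∀ x : ZMod 5, (((2 : ℕ) : ZMod 5) * x = ((1 : ℤ) : ZMod 5) ↔ x = 3) ∧
      (((2 : ℕ) : ZMod 5) * x = ((2 : ℤ) : ZMod 5) ↔ x = 1) := by decide

variable {K : Type*} [Field K] [Fintype K] {q : ℕ}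

theorem simple_eq : chevD4.simple 0 = 18 ∧ chevD4.simple 1 = 14 ∧ chevD4.simple 2 = 13 ∧ chevD4.simple 3 = 12 := by
  have hd := d4Torus_data
  simp only [Bool.and_eq_true, beq_iff_eq, decide_eq_true_eq, List.cons.injEq, and_true] at hd
  obtain ⟨⟨⟨⟨⟨⟨s0, s1, s2, s3, -⟩, -⟩, -⟩, -⟩, -⟩, -⟩ := hd
  exact ⟨s0, s1, s2, s3⟩

theorem chi_eq (s : Fin chevD4.nroots) (c : Fin chevD4.rank → Kˣ) : chi chevD4 s c =
    chi chevD4 18 c ^ crd auxD4 0 s * chi chevD4 14 c ^ crd auxD4 1 s *
      chi chevD4 13 c ^ crd auxD4 2 s * chi chevD4 12 c ^ crd auxD4 3 s := by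
  obtain ⟨s0, s1, s2, s3⟩ := simple_eq
  rw [CfsgLib.Twisted.chi_eq_prod fullD4 s c]
  show ∏ j : Fin 4, chi chevD4 (chevD4.simple j) c ^ crd auxD4 j s = _
  rw [Fin.prod_univ_four]
  simp only [Fin.val_zero, Fin.val_one, Fin.val_two, show ((3 : Fin 4) : ℕ) = 3 from rfl, s0, s1, s2, s3]

/-- No element of order five of ³D₄(q), with `q ≡ 1 mod 5`, is conjugate to its square. -/
theorem not_isConj_sq_one (hq : IsPrimePow q) (hK : Fintype.card K = q ^ 3) (h1 : q % 5 = 1)
    {y : ↥(twistedD4 K q)} (hy : orderOf y = 5) : ¬ IsConj y (y ^ 2) := by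
  classical
  intro hconj
  haveI : Fact (Nat.Prime 5) := ⟨by norm_num⟩
  set H : Subgroup ↥(twistedD4 K q) := (chevD4.diagonalSubgroup K).subgroupOf (twistedD4 K q) with hH
  have hcardH : Nat.card H = (q - 1) ^ 2 * (q ^ 2 + q + 1) := by
    rw [← CfsgLib.Twisted.card_torusD4 hq hK, hH, ← Subgroup.inf_subgroupOf_right]
    exact Nat.card_congr (Subgroup.subgroupOfEquivOfLe inf_le_right).toEquiv
  have hq2 := hq.two_le
  have hi : ¬ 5 ∣ H.index := by
    intro h
    have hc := H.card_mul_index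
    rw [CfsgLib.TwistedOrder.card_twistedD4 hq hK (CfsgLib.Twisted.card_torusD4 hq hK), hcardH] at hc
    obtain ⟨k, rfl⟩ : ∃ k, q = k + 1 := ⟨q - 1, by omega⟩
    have hi' : H.index = (k + 1) ^ 12 * (k + 2) * ((k + 1) ^ 3 + 1) * ((k + 1) ^ 8 + (k + 1) ^ 4 + 1) := by
      refine Nat.eq_of_mul_eq_mul_left (show 0 < (k + 1 - 1) ^ 2 * ((k + 1) ^ 2 + (k + 1) + 1) from by
        rw [Nat.add_sub_cancel]; have : 0 < k := by omega
        positivity) (hc.trans ?_)
      rw [Nat.add_sub_cancel, show (k + 1) ^ 2 - 1 = k * (k + 2) by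
          rw [show (k + 1) ^ 2 = k * (k + 2) + 1 by ring, Nat.add_sub_cancel],
        show (k + 1) ^ 6 - 1 = k * ((k + 1) ^ 2 + (k + 1) + 1) * ((k + 1) ^ 3 + 1) by
          rw [show (k + 1) ^ 6 = k * ((k + 1) ^ 2 + (k + 1) + 1) * ((k + 1) ^ 3 + 1) + 1 by ring,
            Nat.add_sub_cancel]]
      ring
    rw [hi'] at h
    have hk : k % 5 = 0 := by omega
    revert h
    rw [Nat.dvd_iff_mod_eq_zero, Nat.mul_mod, Nat.mul_mod ((k + 1) ^ 12 * (k + 2)), Nat.mul_mod ((k + 1) ^ 12),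
      Nat.add_mod ((k + 1) ^ 8 + (k + 1) ^ 4), Nat.add_mod ((k + 1) ^ 8), Nat.add_mod ((k + 1) ^ 3),
      Nat.pow_mod, Nat.pow_mod _ 3, Nat.pow_mod _ 8, Nat.pow_mod _ 4, h1, Nat.add_mod k 2, hk]
    norm_num
  obtain ⟨d, hd⟩ := CfsgLib.Chevalley.G2Tori.exists_fixed_coset (k := 1) (y := y)
    (by rw [pow_one, ← hy, pow_orderOf_eq_one]) hi
  obtain ⟨c, hc⟩ : ∃ c, torusHom chevD4 K c = ((d * y * d⁻¹ : ↥(twistedD4 K q)) : GL chevD4.Idx K) := by
    have := Subgroup.mem_subgroupOf.1 hd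
    rwa [CfsgLib.Chevalley.diagonalSubgroup_eq_range fullD4] at this
  set T := torusHom chevD4 K c with hT
  have hT5 : T ^ 5 = 1 := by
    rw [hc, ← Subgroup.coe_pow, conj_pow, ← hy, pow_orderOf_eq_one, mul_one, mul_inv_cancel, Subgroup.coe_one]
  have h5 : ∀ s : Fin chevD4.nroots, chi chevD4 s c ^ 5 = 1 := fun s => by
    rw [← map_pow, ← map_one (chi chevD4 s)]
    exact CfsgLib.Twisted.chi_eq_of_torusHom_eq (by rw [map_pow, map_one]; exact hT5) s
  have hcq : ∀ s : Fin chevD4.nroots, chi chevD4 s c ^ q = chi chevD4 s c := fun s => by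
    conv_lhs => rw [← Nat.div_add_mod q 5, h1, pow_add, pow_mul, h5, one_pow, one_mul, pow_one]
  -- the twist
  have hTt : T ∈ twistedD4 K q := hc ▸ (d * y * d⁻¹).2
  have hd4 := d4Torus_data
  simp only [Bool.and_eq_true, beq_iff_eq, decide_eq_true_eq, List.cons.injEq, and_true] at hd4
  obtain ⟨⟨⟨⟨⟨-, ⟨g18, g13, -, -, -⟩⟩, -⟩, -⟩, -⟩, -⟩ := hd4
  have hrel : ∀ r r' : Fin chevD4.nroots, CfsgLib.Twisted.graphSigmaD4A r = r' →
      CfsgLib.Twisted.graphEtaD4A r = 1 → chi chevD4 r' c = chi chevD4 r c := by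
    intro r r' hr he
    have f := CfsgLib.Twisted.fixed_chi fullD4 (CfsgLib.Twisted.d4Twist_isTwist hq hK) hTt r.isLt (hr ▸ r'.isLt)
    simp only [CfsgLib.Twisted.graphTwist, hr, he, Int.cast_one, one_mul, one_pow, mul_one] at f
    rw [← Units.val_pow_eq_pow_val] at f
    rw [Units.ext f, hcq]
  obtain ⟨s0, s1, s2, s3⟩ := simple_eq
  have h13 : chi chevD4 13 c = chi chevD4 18 c :=
    hrel ⟨18, by decide⟩ ⟨13, by decide⟩ g18 (by decide +kernel)
  have h12 : chi chevD4 12 c = chi chevD4 18 c :=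
    (hrel ⟨13, by decide⟩ ⟨12, by decide⟩ g13 (by decide +kernel)).trans h13
  -- conjugation in the general linear group
  have hw : ∃ w : GL chevD4.Idx K, w * T * w⁻¹ = T ^ 2 := by
    obtain ⟨u, hu⟩ := isConj_iff.1 hconj
    refine ⟨((d * u * d⁻¹ : ↥(twistedD4 K q)) : GL chevD4.Idx K), ?_⟩
    rw [hc, ← Subgroup.coe_mul, ← Subgroup.coe_inv, ← Subgroup.coe_mul, ← Subgroup.coe_pow, conj_pow, ← hu]
    congr 1
    group
  obtain ⟨w, hw⟩ := hw
  set v : chevD4.Idx → K := Sum.elim (fun _ => 1) fun s => ((chi chevD4 s c : Kˣ) : K) with hv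
  have hroots : Finset.univ.val.map v = Finset.univ.val.map fun i => v i ^ 2 := by
    have h1 : (Matrix.diagonal v).charpoly = (Matrix.diagonal fun i => v i ^ 2).charpoly := by
      have h2 := congrArg (fun M : GL chevD4.Idx K => (M : Matrix chevD4.Idx chevD4.Idx K).charpoly) hw
      simp only [Units.val_mul, Units.val_pow_eq_pow_val] at h2
      have e3 := Matrix.charpoly_units_conj w (T : Matrix chevD4.Idx chevD4.Idx K)
      rw [Matrix.coe_units_inv] at h2
      rw [e3, hT, coe_torusHom, Matrix.diagonal_pow] at h2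
      exact h2
    rw [Matrix.charpoly_diagonal, Matrix.charpoly_diagonal] at h1
    have h3 := congrArg Polynomial.roots h1
    have key : ∀ u : chevD4.Idx → K,
        (∏ i, (Polynomial.X - Polynomial.C (u i))).roots = Finset.univ.val.map u := by
      intro u
      rw [← Polynomial.roots_multiset_prod_X_sub_C (Finset.univ.val.map u), Multiset.map_map]
      rfl
    rwa [key, key] at h3
  -- a primitive fifth root of unity
  obtain ⟨ζ, hζ⟩ : ∃ ζ : Kˣ, orderOf ζ = 5 := exists_prime_orderOf_dvd_card' 5 (by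
    rw [Nat.card_units, Nat.card_eq_fintype_card, hK, Nat.dvd_iff_mod_eq_zero, ← Nat.sub_mod_eq_zero_of_mod_eq]
    rw [Nat.pow_mod, h1])
  have hlog : ∀ x : Kˣ, x ^ 5 = 1 → ∃ a : ℕ, ζ ^ a = x := by
    intro x hx
    have hζ' : IsPrimitiveRoot (ζ : K) 5 :=
      (IsPrimitiveRoot.coe_units_iff.2 (hζ ▸ IsPrimitiveRoot.orderOf ζ))
    obtain ⟨i, -, hi⟩ := hζ'.eq_pow_of_pow_eq_one (ξ := (x : K)) (by rw [← Units.val_pow_eq_pow_val, hx, Units.val_one])
    exact ⟨i, Units.ext (by rw [Units.val_pow_eq_pow_val]; exact hi)⟩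
  obtain ⟨a, ha⟩ := hlog (chi chevD4 18 c) (h5 ⟨18, by decide⟩)
  obtain ⟨b, hb⟩ := hlog (chi chevD4 14 c) (h5 ⟨14, by decide⟩)
  have hzpow : ∀ m n : ℤ, ζ ^ m = ζ ^ n ↔ ((m : ZMod 5)) = (n : ZMod 5) := by
    intro m n
    rw [← mul_inv_eq_one, ← _root_.zpow_neg, ← _root_.zpow_add, ← orderOf_dvd_iff_zpow_eq_one, hζ,
      ← sub_eq_add_neg, ← ZMod.intCast_zmod_eq_zero_iff_dvd]
    push_cast
    exact sub_eq_zero
  set ex : Fin chevD4.nroots → ℤ :=
    fun s => (crd auxD4 0 s + crd auxD4 2 s + crd auxD4 3 s) * a + crd auxD4 1 s * b with hex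
  have hchi : ∀ s : Fin chevD4.nroots, chi chevD4 s c = ζ ^ ex s := by
    intro s
    rw [chi_eq, h13, h12, ← ha, ← hb, hex, ← zpow_natCast, ← zpow_natCast, ← _root_.zpow_mul, ← _root_.zpow_mul,
      ← _root_.zpow_mul, ← _root_.zpow_mul, ← _root_.zpow_add, ← _root_.zpow_add, ← _root_.zpow_add]
    congr 1
    ring
  have hcount : ∀ m : ℤ, (m : ZMod 5) ≠ 0 → ∀ k : ℕ,
      Multiset.count (((ζ ^ m : Kˣ)) : K) (Finset.univ.val.map fun i => v i ^ k) =
        (Finset.univ.filter fun s => (k : ZMod 5) * expo (a : ZMod 5) (b : ZMod 5) s = (m : ZMod 5)).card := by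
    intro m hm k
    rw [Multiset.count_map, ← Finset.filter_val, Finset.card_val]
    rw [← Finset.card_map (⟨Sum.inr, Sum.inr_injective⟩ : Fin chevD4.nroots ↪ chevD4.Idx)
      (s := Finset.univ.filter fun s => (k : ZMod 5) * expo (a : ZMod 5) (b : ZMod 5) s = (m : ZMod 5))]
    refine congrArg Finset.card (Finset.ext fun i => ?_)
    have hne : (1 : Kˣ) ≠ ζ ^ m := fun h => hm (by
      have := (hzpow 0 m).1 (by rw [_root_.zpow_zero, h])
      simpa using this.symm)
    rcases i with j | s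
    · simp only [Finset.mem_filter, Finset.mem_univ, true_and, Finset.mem_map, Function.Embedding.coeFn_mk,
        reduceCtorEq, and_false, exists_false, iff_false]
      intro h
      simp only [hv, Sum.elim_inl, one_pow] at h
      exact hne (Units.ext (by simpa using h.symm))
    · simp only [Finset.mem_filter, Finset.mem_univ, true_and, Finset.mem_map, Function.Embedding.coeFn_mk,
        Sum.inr.injEq, exists_eq_right, hv, Sum.elim_inr, ← Units.val_pow_eq_pow_val, Units.val_inj]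
      rw [hchi, ← zpow_natCast, ← _root_.zpow_mul, eq_comm, hzpow]
      simp only [hex, expo]
      push_cast
      ring_nf
  have e1 := congrArg (Multiset.count (((ζ ^ (1 : ℤ) : Kˣ)) : K)) hroots
  have e2 := congrArg (Multiset.count (((ζ ^ (2 : ℤ) : Kˣ)) : K)) hroots
  rw [show Finset.univ.val.map v = Finset.univ.val.map (fun i => v i ^ 1) by simp only [pow_one],
    hcount 1 cast_small.1.1 1, hcount 1 cast_small.1.1 2] at e1
  rw [show Finset.univ.val.map v = Finset.univ.val.map (fun i => v i ^ 1) by simp only [pow_one],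
    hcount 2 cast_small.1.2 1, hcount 2 cast_small.1.2 2] at e2
  simp only [fun x => (cast_small.2 x).1] at e1
  simp only [fun x => (cast_small.2 x).2] at e2
  simp only [Nat.cast_one, one_mul, Int.cast_one, Int.cast_ofNat] at e1 e2
  refine expo_unbalanced _ _ ?_ ⟨e1, e2⟩
  by_contra hz
  push Not at hz
  have hz1 : ∀ s : Fin chevD4.nroots, chi chevD4 s c = 1 := fun s => by
    rw [hchi, ← _root_.zpow_zero ζ, hzpow, hex]
    push_cast
    rw [hz.1, hz.2]; ring
  have hT1 : T = 1 := by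
    rw [hT, ← map_one (torusHom chevD4 K)]
    exact CfsgLib.Twisted.torusHom_ext fullD4 fun j => by
      rw [map_one]
      exact hz1 ⟨chevD4.simple j, fullD4.cert.wf.simple_lt j j.isLt⟩
  rw [hT1] at hc
  have : d * y * d⁻¹ = 1 := Subtype.ext hc.symm
  rw [mul_inv_eq_one, mul_eq_left] at this
  rw [this, orderOf_one] at hy
  exact absurd hy (by norm_num)

/-- Field extension maps ³D₄(q) into ³D₄(q⁴). -/
theorem map_mem_twisted {K' : Type*} [Field K'] (f : K →+* K') (hK : Fintype.card K = q ^ 3)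
    {g : GL chevD4.Idx K} (hg : g ∈ twistedD4 K q) :
    Matrix.GeneralLinearGroup.map f g ∈ twistedD4 K' (q ^ 4) := by
  have hpow : ∀ t : K, t ^ q ^ 4 = t ^ q := fun t => by
    rw [show q ^ 4 = q ^ 3 * q by ring, pow_mul, ← hK, FiniteField.pow_card]
  rw [twistedD4, ChevalleyDatum.genSubgroup] at hg
  induction hg using Subgroup.closure_induction with
  | mem g hg =>
    obtain ⟨w, hw, hg⟩ := hg
    refine Subgroup.subset_closure ⟨w.map fun p => (p.1, f p.2), ?_, ?_⟩
    · rcases hw with ⟨t, ht, r, hr, rfl⟩ | ⟨t, rs, hrs, rfl⟩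
      · exact Or.inl ⟨f t, by rw [← map_pow, hpow, ht], r, hr, rfl⟩
      · refine Or.inr ⟨f t, rs, hrs, ?_⟩
        simp only [List.map_cons, List.map_nil, ← map_pow, hpow]
        rw [show (q ^ 4) ^ 2 = q ^ 3 * (q ^ 3 * q ^ 2) by ring, pow_mul, ← hK, FiniteField.pow_card, hK,
          pow_mul, ← hK, FiniteField.pow_card]
    · show (Matrix.GeneralLinearGroup.map f g : Matrix chevD4.Idx chevD4.Idx K') = _
      have key : ∀ (r : ℕ) (t : K), (chevD4.x K r t).map f = chevD4.x K' r (f t) := fun r t =>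
        congrArg (fun M : GL chevD4.Idx K' => (M : Matrix chevD4.Idx chevD4.Idx K')) (map_xG f r t)
      change (g : Matrix chevD4.Idx chevD4.Idx K).map f = _
      rw [hg, ChevalleyDatum.wordMat, ChevalleyDatum.wordMat, ← RingHom.mapMatrix_apply, map_list_prod,
        List.map_map, List.map_map]
      congr 1
      exact List.map_congr_left fun p _ => key p.1 p.2
  | one => simp
  | mul x y _ _ hx hy => rw [map_mul]; exact mul_mem hx hy
  | inv x _ hx => rw [map_inv]; exact inv_mem hx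

/-- No element of order five of ³D₄(q) is conjugate to its square, in characteristic other than five. -/
theorem not_isConj_sq {p a : ℕ} [Fact p.Prime] [CharP K p] (ha : 1 ≤ a) (hK : Fintype.card K = (p ^ a) ^ 3)
    (hp : p ≠ 5) {y : ↥(twistedD4 K (p ^ a))} (hy : orderOf y = 5) : ¬ IsConj y (y ^ 2) := by
  classical
  intro hconj
  let K' := FiniteField.Extension K p 4
  haveI : Finite K' := Module.finite_of_finite K
  letI : Fintype K' := Fintype.ofFinite K'
  have hK' : Fintype.card K' = ((p ^ a) ^ 4) ^ 3 := by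
    rw [Fintype.card_eq_nat_card, FiniteField.natCard_extension, Nat.card_eq_fintype_card, hK]
    ring
  have hpp : p.Prime := Fact.out
  have hq : IsPrimePow ((p ^ a) ^ 4) := ⟨p, a * 4, hpp.prime, by omega, by rw [pow_mul]⟩
  have h1 : (p ^ a) ^ 4 % 5 = 1 := by
    have : ¬ 5 ∣ p ^ a := fun h =>
      hp ((Nat.prime_dvd_prime_iff_eq (by norm_num) hpp).1 (Nat.prime_five.dvd_of_dvd_pow h)).symm
    rw [Nat.pow_mod]
    have h5 : p ^ a % 5 = 1 ∨ p ^ a % 5 = 2 ∨ p ^ a % 5 = 3 ∨ p ^ a % 5 = 4 := by omega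
    rcases h5 with h | h | h | h <;> rw [h] <;> rfl
  let f : K →+* K' := algebraMap K K'
  let φ : ↥(twistedD4 K (p ^ a)) →* ↥(twistedD4 K' ((p ^ a) ^ 4)) :=
    ((Matrix.GeneralLinearGroup.map f).comp (twistedD4 K (p ^ a)).subtype).codRestrict _
      fun x => map_mem_twisted f hK x.2
  have hφ : Function.Injective φ := fun x x' h =>
    Subtype.ext (gl_map_injective f (congrArg Subtype.val h))
  refine not_isConj_sq_one hq hK' h1 (y := φ y) (by rw [orderOf_injective φ hφ, hy]) ?_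
  rw [← map_pow]
  exact MonoidHom.map_isConj φ hconj

end CfsgLib.AltSectD4
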