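import Cfsg.Agent.Lib.AltSectG2.Alt

/-!
A group with a subgroup of odd index all of whose squares lie in an abelian subgroup of two-rank at most two has no
section isomorphic to the alternating group of degree eight: the Frattini subgroup of a Sylow two-subgroup of that
group contains three independent squares.
-/

set_option autoImplicit false

open scoped Pointwise

namespace CfsgLib.AltSectD4

open Equiv CfsgLib.AltSectG2

/-- Swap of the coordinates in both blocks. -/
def coordSwap : Perm (Fin 2 × ZMod 2 × ZMod 2) := Equiv.prodCongr (Equiv.refl _) (Equiv.prodComm _ _)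

/-- Swap of the two blocks. -/
def blockSwap : Perm (Fin 2 × ZMod 2 × ZMod 2) := Equiv.prodCongr (Equiv.swap 0 1) (Equiv.refl _)

/-- The first permutation. -/
def permU : alternatingGroup (Fin 8) :=
  ⟨eightEquiv.permCongr coordSwap, Perm.mem_alternatingGroup.2 (by decide +kernel)⟩

/-- The second permutation. -/
def permS : alternatingGroup (Fin 8) :=
  ⟨eightEquiv.permCongr blockSwap, Perm.mem_alternatingGroup.2 (by decide +kernel)⟩

/-- An element of the group of order sixteen, by its four coordinates. -/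
def vec (a b c d : ZMod 2) : alternatingGroup (Fin 8) :=
  sixteenHom (Multiplicative.ofAdd ![(a, b), (c, d)])

theorem perm_facts : (∀ v, permU * sixteenHom v * permU⁻¹ =
      sixteenHom (Multiplicative.ofAdd fun i => Prod.swap (v.toAdd i))) ∧
    (∀ v, permS * sixteenHom v * permS⁻¹ =
      sixteenHom (Multiplicative.ofAdd fun i => v.toAdd (Equiv.swap 0 1 i))) ∧
    permU ^ 2 = 1 ∧ permS ^ 2 = 1 ∧ permS * permU * permS⁻¹ = permU ∧
    (vec 1 0 0 0 * permU) ^ 2 = vec 1 1 0 0 ∧ (vec 0 0 1 0 * permU) ^ 2 = vec 0 0 1 1 ∧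
    (vec 1 0 0 0 * (permU * permS)) ^ 2 = vec 1 0 0 1 := by
  decide +kernel

theorem indep : Function.Injective fun t : Fin 2 × Fin 2 × Fin 2 =>
    vec 1 1 0 0 ^ (t.1 : ℕ) * vec 0 0 1 1 ^ (t.2.1 : ℕ) * vec 1 0 0 1 ^ (t.2.2 : ℕ) := by
  decide +kernel

theorem mem_normalizer_of {G : Type*} [Group G] [Finite G] {V : Subgroup G} {g : G}
    (h : ∀ x ∈ V, g * x * g⁻¹ ∈ V) : g ∈ Subgroup.normalizer (V : Set G) := by
  have e : V.map (MulAut.conj g).toMonoidHom = V := Subgroup.eq_of_le_of_card_ge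
    (by rintro _ ⟨x, hx, rfl⟩; exact h x hx)
    (le_of_eq (Subgroup.card_map_of_injective (MulAut.conj g).injective).symm)
  refine Subgroup.mem_normalizer_iff.2 fun x => ⟨h x, fun hx => ?_⟩
  obtain ⟨y, hy, hyx⟩ : g * x * g⁻¹ ∈ V.map (MulAut.conj g).toMonoidHom := e.symm ▸ hx
  rwa [← (MulAut.conj g).injective hyx]

/-- The two-group containing the three roots. -/
theorem exists_two_group : ∃ P : Subgroup (alternatingGroup (Fin 8)), IsPGroup 2 P ∧
    vec 1 0 0 0 * permU ∈ P ∧ vec 0 0 1 0 * permU ∈ P ∧ vec 1 0 0 0 * (permU * permS) ∈ P := by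
  obtain ⟨hU, hS, hu2, hs2, hsu, -, -, -⟩ := perm_facts
  set V := sixteenHom.range with hV
  have hV2 : IsPGroup 2 V := by
    rintro ⟨_, v, rfl⟩
    exact ⟨1, Subtype.ext (by rw [pow_one, sq]; show sixteenHom v * sixteenHom v = 1; rw [← map_mul, sixteen_sq, map_one])⟩
  have hcyc : ∀ x : alternatingGroup (Fin 8), x ^ 2 = 1 → IsPGroup 2 (Subgroup.zpowers x) := fun x hx => by
    rintro ⟨_, k, rfl⟩
    exact ⟨1, Subtype.ext (by rw [pow_one]; show (x ^ k) ^ 2 = 1; rw [← zpow_natCast, ← zpow_mul, mul_comm, zpow_mul, zpow_natCast, hx, one_zpow])⟩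
  have h1 : Subgroup.zpowers permU ≤ Subgroup.normalizer (V : Set _) := Subgroup.zpowers_le.2 <|
    mem_normalizer_of fun x hx => by
      obtain ⟨v, rfl⟩ := hx
      exact hU v ▸ ⟨_, rfl⟩
  set VU := Subgroup.zpowers permU ⊔ V
  have hVU : IsPGroup 2 VU := (hcyc _ hu2).to_sup_of_normal_right' hV2 h1
  have h2 : Subgroup.zpowers permS ≤ Subgroup.normalizer (VU : Set _) := Subgroup.zpowers_le.2 <|
    mem_normalizer_of fun x hx => by
      have hle : VU ≤ VU.comap (MulAut.conj permS).toMonoidHom := by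
        refine sup_le (Subgroup.zpowers_le.2 ?_) ?_
        · show permS * permU * permS⁻¹ ∈ VU
          rw [hsu]
          exact Subgroup.mem_sup_left (Subgroup.mem_zpowers _)
        · rintro _ ⟨v, rfl⟩
          show permS * sixteenHom v * permS⁻¹ ∈ VU
          rw [hS v]
          exact Subgroup.mem_sup_right ⟨_, rfl⟩
      exact hle hx
  refine ⟨Subgroup.zpowers permS ⊔ VU, (hcyc _ hs2).to_sup_of_normal_right' hVU h2, ?_, ?_, ?_⟩
  · exact mul_mem (Subgroup.mem_sup_right (Subgroup.mem_sup_right ⟨_, rfl⟩))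
      (Subgroup.mem_sup_right (Subgroup.mem_sup_left (Subgroup.mem_zpowers _)))
  · exact mul_mem (Subgroup.mem_sup_right (Subgroup.mem_sup_right ⟨_, rfl⟩))
      (Subgroup.mem_sup_right (Subgroup.mem_sup_left (Subgroup.mem_zpowers _)))
  · exact mul_mem (Subgroup.mem_sup_right (Subgroup.mem_sup_right ⟨_, rfl⟩))
      (mul_mem (Subgroup.mem_sup_right (Subgroup.mem_sup_left (Subgroup.mem_zpowers _)))
        (Subgroup.mem_sup_left (Subgroup.mem_zpowers _)))

/-- An abelian group with at most four elements of order dividing two has image at most four in a group of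
exponent two. -/
theorem card_range_le_four {A B : Type*} [CommGroup A] [Finite A] [Group B] (φ : A →* B) (hB : ∀ x, φ x ^ 2 = 1)
    (h4 : Nat.card (powMonoidHom 2 : A →* A).ker ≤ 4) : Nat.card φ.range ≤ 4 := by
  set S := (powMonoidHom 2 : A →* A).range
  have hle : S ≤ φ.ker := by
    rintro _ ⟨x, rfl⟩
    rw [MonoidHom.mem_ker, powMonoidHom_apply, map_pow, hB]
  rw [← Subgroup.index_ker φ]
  refine (Nat.le_of_dvd (Nat.pos_of_ne_zero S.index_ne_zero_of_finite) (Subgroup.index_dvd_of_le hle)).trans ?_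
  have h1 := S.card_mul_index
  have h2 := (powMonoidHom 2 : A →* A).ker.card_mul_index
  rw [Subgroup.index_ker] at h2
  have : 0 < Nat.card S := Nat.card_pos
  have e : Nat.card S * S.index = Nat.card S * Nat.card (powMonoidHom 2 : A →* A).ker := by
    rw [h1, mul_comm, h2]
  rw [Nat.eq_of_mul_eq_mul_left this e]
  exact h4

/-- The obstruction to a section of degree eight. -/
theorem no_alt_eight {G : Type*} [Group G] [Finite G] {N M : Subgroup G} (hN : ¬ 2 ∣ N.index)
    (hsq : ∀ x ∈ N, x ^ 2 ∈ M) (hcomm : ∀ x ∈ M, ∀ y ∈ M, x * y = y * x)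
    (hM : Nat.card {x : G // x ∈ M ∧ x ^ 2 = 1} ≤ 4)
    (K : Subgroup G) (π : K →* alternatingGroup (Fin 8)) (hπ : Function.Surjective π) : False := by
  classical
  haveI : Fact (Nat.Prime 2) := ⟨Nat.prime_two⟩
  obtain ⟨P, hP, ha, hb, hc⟩ := exists_two_group
  obtain ⟨-, -, -, -, -, ea, eb, ec⟩ := perm_facts
  set A := P.comap π
  let φ : A →* P := (π.comp A.subtype).codRestrict P fun x => x.2
  have hφ : Function.Surjective φ := fun y => by
    obtain ⟨x, hx⟩ := hπ y
    exact ⟨⟨x, show π x ∈ P from hx ▸ y.2⟩, Subtype.ext hx⟩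
  let S : Sylow 2 A := default
  have hS : (S : Subgroup A).map φ = ⊤ := by
    obtain ⟨n, hn⟩ := (IsPGroup.iff_card).1 hP
    have h2 : ((S : Subgroup A).map φ).index ∣ 2 ^ n := hn ▸ Subgroup.index_dvd_card _
    obtain ⟨k, -, hk⟩ := (Nat.dvd_prime_pow Nat.prime_two).1 h2
    rcases Nat.eq_zero_or_pos k with rfl | hk0
    · exact Subgroup.index_eq_one.1 (by rw [hk, pow_zero])
    · refine absurd ?_ S.not_dvd_index
      exact (dvd_pow_self 2 hk0.ne').trans (hk ▸ Subgroup.index_map_dvd _ hφ)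
  -- conjugate into the subgroup of odd index
  set S' : Subgroup G := (S : Subgroup A).map (K.subtype.comp A.subtype)
  have hS' : IsPGroup 2 S' := S.isPGroup'.map _
  obtain ⟨d, hd⟩ : ∃ d : G, ∀ x ∈ S', d * x * d⁻¹ ∈ N := by
    obtain ⟨o, ho⟩ := hS'.nonempty_fixed_point_of_prime_not_dvd_card (G ⧸ N) hN
    induction o using QuotientGroup.induction_on with
    | H c =>
      refine ⟨c⁻¹, fun x hx => ?_⟩
      have e := ho ⟨x, hx⟩
      change ((x * c : G) : G ⧸ N) = (c : G ⧸ N) at e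
      rw [eq_comm, QuotientGroup.eq] at e
      rw [inv_inv, mul_assoc]
      exact e
  -- the abelian group
  set M' : Subgroup A := (sixteenHom.range.comap (π.comp A.subtype)) ⊓
    M.comap ((MulAut.conj d).toMonoidHom.comp (K.subtype.comp A.subtype)) with hM'
  letI : CommGroup M' :=
    { (inferInstance : Group M') with
      mul_comm := fun x y => by
        apply Subtype.ext; apply Subtype.ext; apply Subtype.ext
        apply (MulAut.conj d).injective
        simp only [map_mul, Subgroup.coe_mul]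
        exact hcomm _ x.2.2 _ y.2.2 }
  let ψ : M' →* alternatingGroup (Fin 8) := π.comp (A.subtype.comp M'.subtype)
  have h4 : Nat.card (powMonoidHom 2 : M' →* M').ker ≤ 4 := by
    let g : (powMonoidHom 2 : M' →* M').ker → {x : G // x ∈ M ∧ x ^ 2 = 1} := fun x =>
      ⟨MulAut.conj d (((x : M') : A) : K), x.1.2.2, by
        have h := congrArg (fun z : M' => MulAut.conj d (((z : A) : K) : G)) (MonoidHom.mem_ker.1 x.2)
        simp only [powMonoidHom_apply, Subgroup.coe_pow, Subgroup.coe_one, map_pow, map_one] at h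
        exact h⟩
    refine le_trans (Nat.card_le_card_of_injective g fun x y h => ?_) hM
    exact Subtype.ext (Subtype.ext (Subtype.ext (Subtype.ext ((MulAut.conj d).injective (congrArg Subtype.val h)))))
  have h2 : ∀ x, ψ x ^ 2 = 1 := fun x => by
    obtain ⟨v, hv⟩ := x.2.1
    show π (A.subtype (M'.subtype x)) ^ 2 = 1
    rw [show π (A.subtype (M'.subtype x)) = sixteenHom v from hv.symm, sq, ← map_mul, sixteen_sq, map_one]
  have hlift : ∀ g ∈ P, g ^ 2 ∈ sixteenHom.range → g ^ 2 ∈ ψ.range := by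
    intro g hg hg2
    obtain ⟨x, hx, hxg⟩ : (⟨g, hg⟩ : P) ∈ (S : Subgroup A).map φ := hS ▸ Subgroup.mem_top _
    have e : π (x : K) = g := congrArg Subtype.val hxg
    refine ⟨⟨x ^ 2, ?_, ?_⟩, ?_⟩
    · show π (((x ^ 2 : A)) : K) ∈ sixteenHom.range
      rw [Subgroup.coe_pow, map_pow, e]
      exact hg2
    · show MulAut.conj d ((((x ^ 2 : A)) : K) : G) ∈ M
      rw [Subgroup.coe_pow, Subgroup.coe_pow, map_pow, MulAut.conj_apply]
      exact hsq _ (hd _ ⟨x, hx, rfl⟩)
    · show π (((x ^ 2 : A)) : K) = g ^ 2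
      rw [Subgroup.coe_pow, map_pow, e]
  have m1 : vec 1 1 0 0 ∈ ψ.range := ea ▸ hlift _ ha (ea.symm ▸ ⟨_, rfl⟩)
  have m2 : vec 0 0 1 1 ∈ ψ.range := eb ▸ hlift _ hb (eb.symm ▸ ⟨_, rfl⟩)
  have m3 : vec 1 0 0 1 ∈ ψ.range := ec ▸ hlift _ hc (ec.symm ▸ ⟨_, rfl⟩)
  have h8 : 8 ≤ Nat.card ψ.range := by
    let f : Fin 2 × Fin 2 × Fin 2 → ψ.range := fun t =>
      ⟨_, mul_mem (mul_mem (pow_mem m1 (t.1 : ℕ)) (pow_mem m2 (t.2.1 : ℕ))) (pow_mem m3 (t.2.2 : ℕ))⟩
    have := Nat.card_le_card_of_injective f fun s t h => indep (congrArg Subtype.val h)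
    simpa [Nat.card_prod] using this
  have := card_range_le_four ψ h2 h4
  omega

end CfsgLib.AltSectD4
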