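import Cfsg.Agent.Lib.AltSectD4.Five
import Cfsg.Agent.Lib.AltSectD4.TwoGroup
import Cfsg.Agent.Lib.Twisted.D4Group

/-!
For `q ≡ 1 mod 4` the group ³D₄(q) has a subgroup of odd index all of whose squares lie in the diagonal subgroup,
which is abelian with at most four elements of order dividing two; so it has no alternating section of degree
eight.
-/

set_option autoImplicit false
set_option linter.unusedSectionVars false
set_option maxRecDepth 100000

open Cfsg.Lie

namespace CfsgLib.AltSectD4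

open CfsgLib.Chevalley (cert_D4 nG chi torusHom Acts rfPerm acts_one acts_nG_simple exists_acts
  mem_diagonal_of_perm diagonal_le_monomial diagonalSubgroup_eq_range smp)
open CfsgLib.Twisted (fullD4)

/-- The Weyl element of the short orbit. -/
def permA : Equiv.Perm (Fin chevD4.nroots) :=
  rfPerm cert_D4 (0 : Fin 4) * rfPerm cert_D4 (2 : Fin 4) * rfPerm cert_D4 (3 : Fin 4)

/-- The reflection in the highest root. -/
def permT : Equiv.Perm (Fin chevD4.nroots) :=
  rfPerm cert_D4 (1 : Fin 4) * permA * rfPerm cert_D4 (1 : Fin 4) * permA * rfPerm cert_D4 (1 : Fin 4)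

/-- The four group of permutations. -/
def four : Fin 4 → Equiv.Perm (Fin chevD4.nroots) := ![1, permA, permT, permA * permT]

theorem four_facts : (∀ i, four i * four i = 1) ∧ Function.Injective four ∧ four 0 = 1 ∧
    ∀ i j, ∃ k, four i * four j = four k := by
  decide +kernel

variable {K : Type*} [Field K] [Fintype K] {q : ℕ}

/-- An element with a given permutation among the four. -/
def InFour (g : GL chevD4.Idx K) : Prop :=
  g ∈ chevD4.monomialSubgroup K ∧ ∃ (i : Fin 4) (η : Fin chevD4.nroots → K), Acts fullD4.cert g (four i) η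

theorem mem_diagonal_of_one {g : GL chevD4.Idx K} (hg : g ∈ chevD4.monomialSubgroup K)
    {η : Fin chevD4.nroots → K} (hA : Acts fullD4.cert g 1 η) : g ∈ chevD4.diagonalSubgroup K :=
  mem_diagonal_of_perm fullD4 hg hA fun i => fullD4.simple_pos i.isLt

theorem inFour_of_diagonal {g : GL chevD4.Idx K} (hg : g ∈ chevD4.diagonalSubgroup K) : InFour g := by
  refine ⟨diagonal_le_monomial hg, 0, ?_⟩
  rw [diagonalSubgroup_eq_range fullD4] at hg
  obtain ⟨c, rfl⟩ := hg
  rw [four_facts.2.2.1]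
  exact ⟨_, CfsgLib.Chevalley.acts_torus fullD4.cert c⟩

/-- The subgroup over the four group. -/
def fourSub (G : Subgroup (GL chevD4.Idx K)) : Subgroup G where
  carrier := {g | InFour (g : GL chevD4.Idx K)}
  one_mem' := ⟨one_mem _, 0, _, by rw [four_facts.2.2.1]; exact acts_one fullD4.cert⟩
  mul_mem' {a b} := by
    rintro ⟨ha, i, η, hA⟩ ⟨hb, j, η', hB⟩
    obtain ⟨k, hk⟩ := four_facts.2.2.2 i j
    exact ⟨mul_mem ha hb, k, _, hk ▸ hA.mul hB⟩
  inv_mem' {a} := by
    rintro ⟨ha, i, η, hA⟩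
    obtain ⟨σ, η', hB⟩ := exists_acts fullD4 (inv_mem ha)
    have h := hA.mul hB
    rw [mul_inv_cancel] at h
    have e : four i * σ = 1 := (h.perm_eq (acts_one fullD4.cert))
    refine ⟨inv_mem ha, i, η', ?_⟩
    rwa [← mul_left_cancel (e.trans (four_facts.1 i).symm)]

variable (hq : IsPrimePow q) (hK : Fintype.card K = q ^ 3)
include hq hK

/-- The subgroup has index four over the diagonal. -/
theorem four_mul_card : 4 * Nat.card ↥((chevD4.diagonalSubgroup K).subgroupOf (twistedD4 K q)) =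
    Nat.card (fourSub (twistedD4 K q)) := by
  classical
  set G := twistedD4 K q with hG
  set H := (chevD4.diagonalSubgroup K).subgroupOf G
  have hw : ∀ i, ∃ g : G, (g : GL chevD4.Idx K) ∈ chevD4.monomialSubgroup K ∧
      ∃ η, Acts fullD4.cert (g : GL chevD4.Idx K) (four i) η := by
    obtain ⟨s0, s1, s2, s3⟩ := simple_eq
    have hn : ∀ i : Fin 4, ∃ η, Acts fullD4.cert (nG cert_D4 (chevD4.simple i) (1 : K)) (rfPerm cert_D4 i) η :=
      fun i => ⟨_, acts_nG_simple fullD4 i one_ne_zero⟩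
    have hnm : ∀ i : Fin 4, nG cert_D4 (chevD4.simple i) (1 : K) ∈ chevD4.monomialSubgroup K := fun i =>
      CfsgLib.Chevalley.nG_simple_mem_monomial fullD4 i
    let gA : G := ⟨_, CfsgLib.Twisted.D4.wA_mem hq hK⟩
    let gB : G := ⟨_, CfsgLib.Twisted.D4.nB_mem hq hK (one_mem (CfsgLib.Twisted.D4.fixSub hq hK))⟩
    obtain ⟨η0, a0⟩ := hn 0
    obtain ⟨η1, a1⟩ := hn 1
    obtain ⟨η2, a2⟩ := hn 2
    obtain ⟨η3, a3⟩ := hn 3
    have m0 := hnm 0
    have m1 := hnm 1
    have m2 := hnm 2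
    have m3 := hnm 3
    simp only [Fin.val_zero, Fin.val_one, Fin.val_two, show ((3 : Fin 4) : ℕ) = 3 from rfl, s0, s1, s2, s3]
      at a0 a1 a2 a3 m0 m1 m2 m3
    have hA : (gA : GL chevD4.Idx K) ∈ chevD4.monomialSubgroup K ∧
        ∃ η, Acts fullD4.cert (gA : GL chevD4.Idx K) permA η :=
      ⟨mul_mem (mul_mem m0 m2) m3, _, (a0.mul a2).mul a3⟩
    have hT : ((gB * gA * gB * gA * gB : G) : GL chevD4.Idx K) ∈ chevD4.monomialSubgroup K ∧
        ∃ η, Acts fullD4.cert ((gB * gA * gB * gA * gB : G) : GL chevD4.Idx K) permT η := by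
      obtain ⟨hAm, η, hAa⟩ := hA
      exact ⟨mul_mem (mul_mem (mul_mem (mul_mem m1 hAm) m1) hAm) m1, _,
        (((a1.mul hAa).mul a1).mul hAa).mul a1⟩
    intro i
    fin_cases i
    · exact ⟨1, one_mem _, _, acts_one fullD4.cert⟩
    · exact ⟨gA, hA⟩
    · exact ⟨_, hT⟩
    · obtain ⟨hAm, η, hAa⟩ := hA
      obtain ⟨hTm, η', hTa⟩ := hT
      exact ⟨gA * _, mul_mem hAm hTm, _, hAa.mul hTa⟩
  choose g hgm ηg hg using hw
  let f : Fin 4 × H → fourSub G := fun x => ⟨g x.1 * x.2, mul_mem (s := (fourSub G))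
    ⟨hgm _, _, _, hg _⟩ (inFour_of_diagonal x.2.2)⟩
  have hperm : ∀ (i : Fin 4) (x : H), ∃ η, Acts fullD4.cert ((g i * x : G) : GL chevD4.Idx K) (four i) η := by
    intro i x
    have hx : ((x : G) : GL chevD4.Idx K) ∈ chevD4.diagonalSubgroup K := x.2
    rw [diagonalSubgroup_eq_range fullD4] at hx
    obtain ⟨c, hc⟩ := hx
    have := (hg i).mul (CfsgLib.Chevalley.acts_torus fullD4.cert c)
    rw [mul_one, hc] at this
    exact ⟨_, this⟩
  have hf : Function.Bijective f := by
    refine ⟨?_, ?_⟩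
    · rintro ⟨i, x⟩ ⟨j, y⟩ h
      have h' : g i * (x : G) = g j * y := congrArg Subtype.val h
      obtain ⟨η, hx⟩ := hperm i x
      obtain ⟨η', hy⟩ := hperm j y
      rw [h'] at hx
      obtain rfl := four_facts.2.1 (hx.perm_eq hy)
      rw [Subtype.ext (mul_left_cancel h')]
    · rintro ⟨z, hzm, i, η, hz⟩
      have hiz : ((g i)⁻¹ * z : G) ∈ fourSub G := mul_mem (inv_mem (s := fourSub G) ⟨hgm i, _, _, hg i⟩) ⟨hzm, i, η, hz⟩
      obtain ⟨hdm, j, η', hd⟩ := hiz
      have h := (hg i).mul hd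
      rw [← Subgroup.coe_mul, mul_inv_cancel_left] at h
      have hj : four i * four j = four i := (h.perm_eq hz)
      rw [mul_eq_left] at hj
      rw [hj] at hd
      have hmem : (g i)⁻¹ * z ∈ H := Subgroup.mem_subgroupOf.2 (mem_diagonal_of_one hdm hd)
      refine ⟨(i, ⟨(g i)⁻¹ * z, hmem⟩), ?_⟩
      apply Subtype.ext
      show g i * ((g i)⁻¹ * z) = z
      exact mul_inv_cancel_left (g i) z
  rw [← Nat.card_congr (Equiv.ofBijective f hf), Nat.card_prod, Nat.card_fin]

theorem index_odd (h4 : q % 4 = 1) : ¬ 2 ∣ (fourSub (twistedD4 K q)).index := by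
  intro h
  have hq2 := hq.two_le
  have hc := (fourSub (twistedD4 K q)).card_mul_index
  have hH : Nat.card ↥((chevD4.diagonalSubgroup K).subgroupOf (twistedD4 K q)) = (q - 1) ^ 2 * (q ^ 2 + q + 1) := by
    rw [← CfsgLib.Twisted.card_torusD4 hq hK, ← Subgroup.inf_subgroupOf_right]
    exact Nat.card_congr (Subgroup.subgroupOfEquivOfLe inf_le_right).toEquiv
  rw [← four_mul_card hq hK, hH,
    CfsgLib.TwistedOrder.card_twistedD4 hq hK (CfsgLib.Twisted.card_torusD4 hq hK)] at hc
  obtain ⟨m, rfl⟩ : ∃ m, q = 4 * m + 1 := ⟨q / 4, by omega⟩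
  have hm : 0 < m := by omega
  have e : (fourSub (twistedD4 K (4 * m + 1))).index = (4 * m + 1) ^ 12 * (2 * m + 1) *
      (32 * m ^ 3 + 24 * m ^ 2 + 6 * m + 1) * ((4 * m + 1) ^ 8 + (4 * m + 1) ^ 4 + 1) := by
    refine Nat.eq_of_mul_eq_mul_left (show 0 < 4 * ((4 * m + 1 - 1) ^ 2 * ((4 * m + 1) ^ 2 + (4 * m + 1) + 1)) by
      rw [Nat.add_sub_cancel]; positivity) (hc.trans ?_)
    rw [Nat.add_sub_cancel, show (4 * m + 1) ^ 2 - 1 = 4 * m * (4 * m + 2) by
        rw [show (4 * m + 1) ^ 2 = 4 * m * (4 * m + 2) + 1 by ring, Nat.add_sub_cancel],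
      show (4 * m + 1) ^ 6 - 1 = 4 * m * ((4 * m + 1) ^ 2 + (4 * m + 1) + 1) * ((4 * m + 1) ^ 3 + 1) by
        rw [show (4 * m + 1) ^ 6 = 4 * m * ((4 * m + 1) ^ 2 + (4 * m + 1) + 1) * ((4 * m + 1) ^ 3 + 1) + 1 by ring,
          Nat.add_sub_cancel]]
    ring
  rw [e, ← ZMod.natCast_eq_zero_iff] at h
  push_cast at h
  rw [show (4 : ZMod 2) = 0 from rfl, show (2 : ZMod 2) = 0 from rfl, show (32 : ZMod 2) = 0 from rfl,
    show (24 : ZMod 2) = 0 from rfl, show (6 : ZMod 2) = 0 from rfl] at h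
  simp at h
  revert h; decide

/-- The diagonal subgroup has two-rank at most two. -/
theorem card_invol_le : Nat.card {x : ↥(twistedD4 K q) //
    x ∈ (chevD4.diagonalSubgroup K).subgroupOf (twistedD4 K q) ∧ x ^ 2 = 1} ≤ 4 := by
  classical
  set G := twistedD4 K q with hG
  let X := {x : G // x ∈ (chevD4.diagonalSubgroup K).subgroupOf G ∧ x ^ 2 = 1}
  have hc : ∀ x : X, ∃ c, torusHom chevD4 K c = ((x : G) : GL chevD4.Idx K) := fun x => by
    exact (diagonalSubgroup_eq_range fullD4).le (Subgroup.mem_subgroupOf.1 x.2.1)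
  choose c hc using hc
  have h2 : ∀ (x : X) (s : Fin chevD4.nroots), chi chevD4 s (c x) = 1 ∨ chi chevD4 s (c x) = -1 := by
    intro x s
    have e : chi chevD4 s (c x) ^ 2 = 1 := by
      rw [← map_pow, ← map_one (chi chevD4 s)]
      refine CfsgLib.Twisted.chi_eq_of_torusHom_eq ?_ s
      rw [map_pow, map_one, hc, ← Subgroup.coe_pow, x.2.2, Subgroup.coe_one]
    have e' : (chi chevD4 s (c x) : K) * chi chevD4 s (c x) = 1 := by
      rw [← Units.val_mul, ← sq, e, Units.val_one]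
    rcases mul_self_eq_one_iff.1 e' with h | h
    · exact Or.inl (Units.ext h)
    · exact Or.inr (Units.ext (by rw [h, Units.val_neg, Units.val_one]))
  have hd4 := CfsgLib.KnownSimple.TrialityTorus.d4Torus_data
  simp only [Bool.and_eq_true, beq_iff_eq, decide_eq_true_eq, List.cons.injEq, and_true] at hd4
  obtain ⟨⟨⟨⟨⟨-, ⟨g18, g13, -, -, -⟩⟩, -⟩, -⟩, -⟩, -⟩ := hd4
  have hrel : ∀ (x : X) (r r' : Fin chevD4.nroots), CfsgLib.Twisted.graphSigmaD4A r = r' →
      CfsgLib.Twisted.graphEtaD4A r = 1 → chi chevD4 r' (c x) = chi chevD4 r (c x) ^ q := by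
    intro x r r' hr he
    have f := CfsgLib.Twisted.fixed_chi fullD4 (CfsgLib.Twisted.d4Twist_isTwist hq hK)
      (show torusHom chevD4 K (c x) ∈ G from (hc x).symm ▸ (x : G).2) r.isLt (hr ▸ r'.isLt)
    simp only [CfsgLib.Twisted.graphTwist, hr, he, Int.cast_one, one_mul, one_pow, mul_one] at f
    rw [← Units.val_pow_eq_pow_val] at f
    exact Units.ext f
  let u : X → Bool × Bool := fun x => (decide (chi chevD4 18 (c x) = 1), decide (chi chevD4 14 (c x) = 1))
  have hu : Function.Injective u := by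
    intro x y h
    simp only [u, Prod.mk.injEq, decide_eq_decide] at h
    have key : ∀ s : Fin chevD4.nroots, (chi chevD4 s (c x) = 1 ↔ chi chevD4 s (c y) = 1) →
        chi chevD4 s (c x) = chi chevD4 s (c y) := fun s hs => by
      by_cases hx : chi chevD4 s (c x) = 1
      · rw [hx, hs.1 hx]
      · rw [(h2 x s).resolve_left hx, (h2 y s).resolve_left fun e => hx (hs.2 e)]
    have e18 := key ⟨18, by decide⟩ h.1
    have e14 := key ⟨14, by decide⟩ h.2
    have e13 : chi chevD4 13 (c x) = chi chevD4 13 (c y) := by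
      rw [hrel x ⟨18, by decide⟩ ⟨13, by decide⟩ g18 (by decide +kernel),
        hrel y ⟨18, by decide⟩ ⟨13, by decide⟩ g18 (by decide +kernel), e18]
    have e12 : chi chevD4 12 (c x) = chi chevD4 12 (c y) := by
      rw [hrel x ⟨13, by decide⟩ ⟨12, by decide⟩ g13 (by decide +kernel),
        hrel y ⟨13, by decide⟩ ⟨12, by decide⟩ g13 (by decide +kernel)]
      exact congrArg (· ^ q) e13
    have := CfsgLib.KnownSimple.TrialityTorus.torusHom_ext4 e18 e14 e13 e12
    rw [hc, hc] at this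
    exact Subtype.ext (Subtype.ext this)
  have := Nat.card_le_card_of_injective u hu
  simpa [Nat.card_prod] using this

/-- No section of degree eight. -/
theorem no_alt_eight_twisted (h4 : q % 4 = 1) (L : Subgroup ↥(twistedD4 K q))
    (π : L →* alternatingGroup (Fin 8)) (hπ : Function.Surjective π) : False := by
  refine no_alt_eight (N := fourSub (twistedD4 K q))
    (M := (chevD4.diagonalSubgroup K).subgroupOf (twistedD4 K q)) (index_odd hq hK h4) ?_ ?_
    (card_invol_le hq hK) L π hπ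
  · rintro x ⟨hm, i, η, hA⟩
    have h := hA.mul hA
    rw [four_facts.1 i, ← Subgroup.coe_mul] at h
    rw [sq, Subgroup.mem_subgroupOf]
    exact mem_diagonal_of_one (mul_mem hm hm) h
  · intro x hx y hy
    rw [Subgroup.mem_subgroupOf, diagonalSubgroup_eq_range fullD4] at hx hy
    obtain ⟨a, ha⟩ := hx
    obtain ⟨b, hb⟩ := hy
    refine Subtype.ext ?_
    rw [Subgroup.coe_mul, Subgroup.coe_mul, ← ha, ← hb, ← map_mul, mul_comm, map_mul]

end CfsgLib.AltSectD4
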